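import Mathlib

/-!
Two identities between the power series `∑ xⁿ / (t; t)_n`, used to count unipotent symplectic matrices.
-/

set_option autoImplicit false

namespace CfsgLib.SympUnipCount

open PowerSeries

variable {t : ℚ}

/-- `(t; t)_n`. -/
def qfac (t : ℚ) (n : ℕ) : ℚ := ∏ i ∈ Finset.range n, (1 - t ^ (i + 1))

/-- `∑ xⁿ / (t; t)_n`. -/
noncomputable def eSer (t : ℚ) : PowerSeries ℚ := PowerSeries.mk fun n => (qfac t n)⁻¹

theorem qfac_ne_zero (ht : ∀ n, t ^ (n + 1) ≠ 1) (n : ℕ) : qfac t n ≠ 0 :=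
  Finset.prod_ne_zero_iff.2 fun i _ => sub_ne_zero.2 (ht i).symm

theorem constantCoeff_eSer : constantCoeff (eSer t) = 1 := by simp [eSer, qfac]

theorem eSer_ne_zero : eSer t ≠ 0 := fun h => by
  simpa [h] using (constantCoeff_eSer (t := t))

theorem one_sub_X_ne_zero : (1 - X : PowerSeries ℚ) ≠ 0 := fun h => by
  simpa using congrArg constantCoeff h

theorem one_sub_X_mul_eSer (ht : ∀ n, t ^ (n + 1) ≠ 1) :
    (1 - X) * eSer t = rescale t (eSer t) := by
  ext (_ | n)
  · simp [eSer, qfac, coeff_rescale]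
  · rw [sub_mul, one_mul, map_sub, coeff_succ_X_mul, coeff_rescale]
    simp only [eSer, coeff_mk]
    have h1 := qfac_ne_zero ht n
    have h2 : qfac t (n + 1) = qfac t n * (1 - t ^ (n + 1)) := Finset.prod_range_succ _ _
    have h3 : (1 - t ^ (n + 1)) ≠ 0 := sub_ne_zero.2 (ht n).symm
    rw [h2]
    field_simp
    ring

theorem eq_of_one_sub_X_mul (ht : ∀ n, t ^ (n + 1) ≠ 1) {G H : PowerSeries ℚ}
    (hG : (1 - X) * G = rescale t G) (hH : (1 - X) * H = rescale t H)
    (h0 : constantCoeff G = constantCoeff H) : G = H := by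
  ext n
  induction n with
  | zero => simpa using h0
  | succ n ih =>
    have eG := congrArg (coeff (n + 1)) hG
    have eH := congrArg (coeff (n + 1)) hH
    rw [sub_mul, one_mul, map_sub, coeff_succ_X_mul, coeff_rescale] at eG eH
    have h3 : (1 - t ^ (n + 1)) ≠ 0 := sub_ne_zero.2 (ht n).symm
    refine mul_left_cancel₀ h3 ?_
    linear_combination eG - eH + ih

theorem eSer_sq_mul (ht : ∀ n, t ^ (n + 1) ≠ 1) :
    eSer (t ^ 2) * rescale t (eSer (t ^ 2)) = eSer t := by
  have ht2 : ∀ n, (t ^ 2) ^ (n + 1) ≠ 1 := fun n => by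
    rw [← pow_mul]
    exact ht (2 * n + 1)
  refine eq_of_one_sub_X_mul ht ?_ (one_sub_X_mul_eSer ht) ?_
  · rw [← mul_assoc, one_sub_X_mul_eSer ht2, map_mul, rescale_rescale, ← pow_two, mul_comm]
  · rw [map_mul, constantCoeff_eSer, constantCoeff_eSer, ← coeff_zero_eq_constantCoeff_apply,
      coeff_rescale]
    simp [eSer, qfac]

/-- The two counting equations determine the unipotent series. -/
theorem eq_rescale_eSer (ht : ∀ n, t ^ (n + 1) ≠ 1) {U G : PowerSeries ℚ}
    (h1 : (1 - X) * (U * G) = 1) (h2 : rescale t (eSer t) * G = eSer (t ^ 2)) :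
    U = rescale t (eSer (t ^ 2)) := by
  have h3 : (1 - X) * (U * eSer (t ^ 2)) = (1 - X) * eSer t := by
    rw [← h2, one_sub_X_mul_eSer ht]
    calc (1 - X) * (U * (rescale t (eSer t) * G)) = (1 - X) * (U * G) * rescale t (eSer t) := by ring
      _ = rescale t (eSer t) := by rw [h1, one_mul]
  have h4 := mul_left_cancel₀ one_sub_X_ne_zero h3
  rw [← eSer_sq_mul ht, mul_comm U] at h4
  exact mul_left_cancel₀ eSer_ne_zero h4

end CfsgLib.SympUnipCount
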