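import Cfsg.Agent.SympUnipCount.Split
import Cfsg.Agent.SympUnipCount.Series
import Cfsg.Agent.Classical.Symp.Unipotent

/-!
Steinberg's count of the unipotent elements of `Sp_2m(q)`.

Two Fitting splittings are used: of `g - 1` for `g` symplectic, and of `A (A + 1)` for the matrices
`A` with `J A + Aᵀ J = -J` (an affine space, whose invertible members are the `(g - 1)⁻¹`).
-/

set_option autoImplicit false

namespace CfsgLib.SympUnipCount

open Matrix Module Polynomial CfsgLib.Classical.Symp CfsgLib.Classical.Symp.Blocks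

variable {F : Type*} [Field F]

local notation "Jn[" n "]" => Matrix.J (Fin n) F
local notation "Sp[" n "]" => Matrix.symplecticGroup (Fin n) F
local notation "Mn[" n "]" => Matrix (Fin n ⊕ Fin n) (Fin n ⊕ Fin n) F

theorem transpose_coe_mul_J {n : ℕ} (h : Sp[n]) :
    (h : Mn[n])ᵀ * Jn[n] = Jn[n] * ((h⁻¹ : Sp[n]) : Mn[n]) := by
  have h1 := SymplecticGroup.mem_iff'.1 h.2
  calc (h : Mn[n])ᵀ * Jn[n]
      = (h : Mn[n])ᵀ * Jn[n] * ((h : Mn[n]) * ((h⁻¹ : Sp[n]) : Mn[n])) := by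
        rw [coe_mul_inv, Matrix.mul_one]
    _ = (h : Mn[n])ᵀ * Jn[n] * (h : Mn[n]) * ((h⁻¹ : Sp[n]) : Mn[n]) := by
        simp only [Matrix.mul_assoc]
    _ = _ := by rw [h1]

theorem J_mul_coe {n : ℕ} (h : Sp[n]) :
    Jn[n] * (h : Mn[n]) = ((h⁻¹ : Sp[n]) : Mn[n])ᵀ * Jn[n] := by
  rw [transpose_coe_mul_J, inv_inv]

variable (F) in
/-- The symplectic group with the polynomial `X - 1`. -/
noncomputable def famSp : Fam F where
  S n := {X | X ∈ Matrix.symplecticGroup (Fin n) F}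
  P := X - 1
  conj_mem h _ hX := mul_mem (mul_mem h.2 hX) (h⁻¹).2
  blk_mem := blk_mem_symplectic
  adj {n X} hX := by
    set g : Matrix.symplecticGroup (Fin n) F := ⟨X, hX⟩
    have hP : aeval X ((Polynomial.X : F[X]) - 1) =
        (g : Matrix (Fin n ⊕ Fin n) (Fin n ⊕ Fin n) F) - 1 := by simp [g]
    refine ⟨-((g⁻¹ : Matrix.symplecticGroup (Fin n) F) : Matrix (Fin n ⊕ Fin n) (Fin n ⊕ Fin n) F),
      (isUnit_coe g⁻¹).neg, ?_, ?_⟩
    · rw [hP]
      refine (Commute.sub_right ?_ (Commute.one_right _)).neg_left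
      exact (coe_inv_mul' g).trans (coe_mul_inv g).symm
    · rw [hP, transpose_sub, transpose_one, Matrix.sub_mul, Matrix.one_mul, transpose_coe_mul_J,
        Matrix.neg_mul, Matrix.mul_neg, Matrix.mul_sub, coe_inv_mul', Matrix.mul_one, Matrix.mul_sub,
        Matrix.mul_one, neg_sub]

variable (F) in
/-- The affine space `J A + Aᵀ J = -J` with the polynomial `X (X + 1)`. -/
noncomputable def famCay : Fam F where
  S n := {A | Matrix.J (Fin n) F * A + Aᵀ * Matrix.J (Fin n) F = -Matrix.J (Fin n) F}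
  P := X * (X + 1)
  conj_mem {n} h A hA := by
    show Jn[n] * cj h A + (cj h A)ᵀ * Jn[n] = -Jn[n]
    have hk : ((h⁻¹ : Sp[n]) : Mn[n])ᵀ * Jn[n] * ((h⁻¹ : Sp[n]) : Mn[n]) = Jn[n] :=
      SymplecticGroup.mem_iff'.1 (h⁻¹).2
    have e1 : Jn[n] * cj h A =
        ((h⁻¹ : Sp[n]) : Mn[n])ᵀ * (Jn[n] * A) * ((h⁻¹ : Sp[n]) : Mn[n]) := by
      rw [cj_apply, ← Matrix.mul_assoc, ← Matrix.mul_assoc, J_mul_coe]
      simp only [Matrix.mul_assoc]
    have e2 : (cj h A)ᵀ * Jn[n] =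
        ((h⁻¹ : Sp[n]) : Mn[n])ᵀ * (Aᵀ * Jn[n]) * ((h⁻¹ : Sp[n]) : Mn[n]) := by
      rw [cj_apply, transpose_mul, transpose_mul]
      simp only [Matrix.mul_assoc]
      rw [transpose_coe_mul_J]
    rw [e1, e2, ← Matrix.add_mul, ← Matrix.mul_add, hA, Matrix.mul_neg, Matrix.neg_mul, hk]
  blk_mem {a b} x y := by
    show Jn[a + b] * blk a b (x, y) + (blk a b (x, y))ᵀ * Jn[a + b] = -Jn[a + b] ↔
      (Jn[a] * x + xᵀ * Jn[a] = -Jn[a]) ∧ (Jn[b] * y + yᵀ * Jn[b] = -Jn[b])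
    rw [← blk_J, blk_transpose, ← map_mul, ← map_mul, ← map_add, ← map_neg]
    exact ⟨fun h => ⟨congrArg Prod.fst (blk_injective a b h), congrArg Prod.snd (blk_injective a b h)⟩,
      fun h => congrArg (blk a b) (Prod.ext h.1 h.2)⟩
  adj {n A} hA := by
    have h1 : Aᵀ * Jn[n] = -(Jn[n] * (A + 1)) := by
      rw [Matrix.mul_add, Matrix.mul_one, neg_add, eq_add_neg_iff_add_eq, eq_neg_iff_add_eq_zero]
      have h0 : Jn[n] * A + Aᵀ * Jn[n] = -Jn[n] := hA
      rw [show Aᵀ * Jn[n] + Jn[n] + Jn[n] * A = Jn[n] * A + Aᵀ * Jn[n] + Jn[n] by abel, h0,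
        neg_add_cancel]
    have h2 : (A + 1)ᵀ * Jn[n] = -(Jn[n] * A) := by
      rw [transpose_add, transpose_one, Matrix.add_mul, Matrix.one_mul, h1, Matrix.mul_add, Matrix.mul_one]
      abel
    refine ⟨1, isUnit_one, Commute.one_left _, ?_⟩
    simp only [map_mul, map_add, aeval_X, map_one, Matrix.one_mul, transpose_mul]
    rw [Matrix.mul_assoc _ Aᵀ, h1, Matrix.mul_neg, ← Matrix.mul_assoc _ Jn[n], h2, Matrix.neg_mul,
      neg_neg, Matrix.mul_assoc]

theorem famSp_aeval {n : ℕ} (A : Mn[n]) : aeval A (famSp F).P = A - 1 := by simp [famSp]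

theorem famCay_aeval {n : ℕ} (A : Mn[n]) : aeval A (famCay F).P = A * (A + 1) := by simp [famCay]

theorem mem_famCay {n : ℕ} {A : Mn[n]} :
    A ∈ (famCay F).S n ↔ Jn[n] * A + Aᵀ * Jn[n] = -Jn[n] := Iff.rfl

theorem cay_identity {n : ℕ} (A : Mn[n]) :
    (A + 1)ᵀ * Jn[n] * (A + 1) = Aᵀ * Jn[n] * A + ((Jn[n] * A + Aᵀ * Jn[n]) + Jn[n]) := by
  rw [transpose_add, transpose_one]
  noncomm_ring

/-- Invertible members of the affine space are the `(g - 1)⁻¹`. -/
noncomputable def invCayEquiv (n : ℕ) : (famCay F).Inv n ≃ (famSp F).Inv n where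
  toFun A := ⟨1 + A.1⁻¹, by
    obtain ⟨A, hA, hu⟩ := A
    show 1 + A⁻¹ ∈ Sp[n] ∧ IsUnit (aeval (1 + A⁻¹) (famSp F).P)
    rw [famCay_aeval, Matrix.isUnit_iff_isUnit_det, det_mul] at hu
    have hdA : IsUnit A.det := (IsUnit.mul_iff.1 hu).1
    refine ⟨?_, ?_⟩
    · rw [SymplecticGroup.mem_iff']
      have h1 : (A + 1)ᵀ * Jn[n] * (A + 1) = Aᵀ * Jn[n] * A := by
        rw [cay_identity, mem_famCay.1 hA, neg_add_cancel, add_zero]
      have h2 : A + 1 = (1 + A⁻¹) * A := by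
        rw [Matrix.add_mul, Matrix.one_mul, nonsing_inv_mul _ hdA]
      rw [h2, transpose_mul] at h1
      have hu1 : IsUnit Aᵀ := (isUnit_transpose A).2 ((isUnit_iff_isUnit_det A).2 hdA)
      have hu2 : IsUnit A := (isUnit_iff_isUnit_det A).2 hdA
      refine hu1.mul_left_cancel (hu2.mul_right_cancel ?_)
      simpa only [Matrix.mul_assoc] using h1
    · rw [famSp_aeval, add_sub_cancel_left]
      exact (isUnit_iff_isUnit_det _).2 ((isUnit_nonsing_inv_det_iff).2 hdA)⟩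
  invFun g := ⟨(g.1 - 1)⁻¹, by
    obtain ⟨g, hg, hu⟩ := g
    show (g - 1)⁻¹ ∈ (famCay F).S n ∧ IsUnit (aeval (g - 1)⁻¹ (famCay F).P)
    rw [famSp_aeval, Matrix.isUnit_iff_isUnit_det] at hu
    have h2 : (g - 1)⁻¹ + 1 = g * (g - 1)⁻¹ := by
      have h3 := mul_nonsing_inv _ hu
      rw [Matrix.sub_mul, Matrix.one_mul, sub_eq_iff_eq_add] at h3
      rw [h3, add_comm]
    refine ⟨?_, ?_⟩
    · rw [mem_famCay]
      have h1 : ((g - 1)⁻¹ + 1)ᵀ * Jn[n] * ((g - 1)⁻¹ + 1) = ((g - 1)⁻¹)ᵀ * Jn[n] * (g - 1)⁻¹ := by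
        rw [h2, transpose_mul]
        conv_rhs => rw [← SymplecticGroup.mem_iff'.1 hg]
        simp only [Matrix.mul_assoc]
      rw [cay_identity, add_eq_left] at h1
      exact eq_neg_of_add_eq_zero_left h1
    · rw [famCay_aeval, h2]
      have hui : IsUnit (g - 1)⁻¹ := (isUnit_iff_isUnit_det _).2 ((isUnit_nonsing_inv_det_iff).2 hu)
      exact hui.mul ((isUnit_coe ⟨g, hg⟩).mul hui)⟩
  left_inv A := Subtype.ext (by
    obtain ⟨A, hA, hu⟩ := A
    show (1 + A⁻¹ - 1)⁻¹ = A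
    rw [famCay_aeval, Matrix.isUnit_iff_isUnit_det, det_mul] at hu
    rw [add_sub_cancel_left, nonsing_inv_nonsing_inv _ (IsUnit.mul_iff.1 hu).1])
  right_inv g := Subtype.ext (by
    obtain ⟨g, hg, hu⟩ := g
    show 1 + ((g - 1)⁻¹)⁻¹ = g
    rw [famSp_aeval, Matrix.isUnit_iff_isUnit_det] at hu
    rw [nonsing_inv_nonsing_inv _ hu, add_sub_cancel])

/-- Symmetric matrices as functions on unordered pairs. -/
def symmMatrixEquiv (ι : Type*) : {s : Matrix ι ι F // sᵀ = s} ≃ (Sym2 ι → F) :=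
  (Equiv.subtypeEquivRight fun s => ⟨fun h a b => congrFun (congrFun h b) a,
    fun h => Matrix.ext fun a b => h b a⟩).trans Sym2.lift

/-! ### The nilpotent stratum of the affine space -/

/-- The member of the affine space attached to a square matrix. -/
def dia {n : ℕ} (x : Matrix (Fin n) (Fin n) F) : Mn[n] := fromBlocks x 0 0 (-(1 + xᵀ))

theorem dia_mem {n : ℕ} (x : Matrix (Fin n) (Fin n) F) : dia x ∈ (famCay F).S n := by
  rw [mem_famCay, dia, Matrix.J, fromBlocks_transpose, fromBlocks_multiply, fromBlocks_multiply,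
    fromBlocks_add, fromBlocks_neg]
  simp

theorem mem_famCay_fromBlocks {n : ℕ} {x y : Matrix (Fin n) (Fin n) F}
    (h : fromBlocks x 0 0 y ∈ (famCay F).S n) : fromBlocks x 0 0 y = dia x := by
  rw [mem_famCay, Matrix.J, fromBlocks_transpose, fromBlocks_multiply, fromBlocks_multiply,
    fromBlocks_add, fromBlocks_neg, fromBlocks_inj] at h
  have h12 := h.2.1
  simp at h12
  rw [dia, fromBlocks_inj]
  refine ⟨rfl, rfl, rfl, ?_⟩
  rw [neg_add, ← sub_eq_add_neg, eq_sub_iff_add_eq]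
  have h0 : y + xᵀ + 1 = -y + -xᵀ + (y + xᵀ) := by
    rw [h12]
    abel
  have : y + xᵀ + 1 = 0 := h0.trans (by abel)
  exact eq_neg_of_add_eq_zero_left this

theorem isNilpotent_dia {n : ℕ} {x : Matrix (Fin n) (Fin n) F} (hx : IsNilpotent x) :
    IsNilpotent (aeval (dia x) (famCay F).P) := by
  rw [famCay_aeval]
  have h1 : dia x * (dia x + 1) = fromBlocks (x * (x + 1)) 0 0 ((xᵀ + 1) * xᵀ) := by
    rw [dia, ← fromBlocks_one, fromBlocks_add, fromBlocks_multiply]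
    congr 1 <;> simp [add_comm] <;> noncomm_ring
  rw [h1]
  have hxt : IsNilpotent xᵀ := by
    obtain ⟨N, hN⟩ := hx
    exact ⟨N, by rw [← transpose_pow, hN, transpose_zero]⟩
  have hp : IsNilpotent ((x * (x + 1), (xᵀ + 1) * xᵀ) :
      Matrix (Fin n) (Fin n) F × Matrix (Fin n) (Fin n) F) := by
    obtain ⟨N, hN⟩ := Commute.isNilpotent_mul_right ((Commute.refl x).add_right (Commute.one_right x)) hx
    obtain ⟨N', hN'⟩ := Commute.isNilpotent_mul_left ((Commute.refl xᵀ).add_left (Commute.one_left xᵀ)) hxt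
    exact ⟨N + N', by rw [Prod.pow_mk, pow_add, pow_add, hN, hN', Matrix.zero_mul, Matrix.mul_zero]; rfl⟩
  exact hp.map (diagBlocks F (Fin n) (Fin n))

theorem isUnit_dia_lower {n : ℕ} {x : Matrix (Fin n) (Fin n) F} (hx : IsNilpotent x) :
    IsUnit (-(1 + xᵀ)) := by
  refine (IsNilpotent.isUnit_one_add ?_).neg
  obtain ⟨N, hN⟩ := hx
  exact ⟨N, by rw [← transpose_pow, hN, transpose_zero]⟩

theorem exists_dia_repr {n : ℕ} {A : Mn[n]} (hA : A ∈ (famCay F).S n)
    (hnil : IsNilpotent (aeval A (famCay F).P)) :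
    ∃ (h : Sp[n]) (x : Matrix (Fin n) (Fin n) F), IsNilpotent x ∧ A = cj h (dia x) := by
  classical
  obtain ⟨N, hN⟩ := hnil
  rw [famCay_aeval, ((Commute.refl A).add_right (Commute.one_right A)).mul_pow] at hN
  have h0 : Jn[n] * A + Aᵀ * Jn[n] = -Jn[n] := hA
  have hs1 : SemiconjBy Jn[n] (A + 1) (-Aᵀ) := by
    show Jn[n] * (A + 1) = -Aᵀ * Jn[n]
    rw [Matrix.mul_add, Matrix.mul_one, Matrix.neg_mul, eq_neg_iff_add_eq_zero]
    rw [show Jn[n] * A + Jn[n] + Aᵀ * Jn[n] = Jn[n] * A + Aᵀ * Jn[n] + Jn[n] by abel, h0, neg_add_cancel]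
  have hs0 : SemiconjBy Jn[n] A (-(Aᵀ + 1)) := by
    show Jn[n] * A = -(Aᵀ + 1) * Jn[n]
    rw [Matrix.neg_mul, Matrix.add_mul, Matrix.one_mul, eq_neg_iff_add_eq_zero, ← add_assoc, h0,
      neg_add_cancel]
  obtain ⟨u, v, huv⟩ : IsCoprime ((X : F[X]) ^ N) ((X + 1) ^ N) :=
    IsCoprime.pow ⟨-1, 1, by ring⟩
  set U := aeval A u
  set V := aeval A v
  have huv' : U * A ^ N + V * (A + 1) ^ N = 1 := by
    have := congrArg (aeval A) huv
    simpa using this
  have hUA : Commute U A := by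
    show aeval A u * A = A * aeval A u
    have := congrArg (aeval A) (mul_comm u X)
    simpa using this
  have hVA : Commute V A := by
    show aeval A v * A = A * aeval A v
    have := congrArg (aeval A) (mul_comm v X)
    simpa using this
  set K₀ : Submodule F (Fin n ⊕ Fin n → F) := LinearMap.ker (A ^ N).mulVecLin with hK₀
  set K₁ : Submodule F (Fin n ⊕ Fin n → F) := LinearMap.ker ((A + 1) ^ N).mulVecLin with hK₁
  have mK₀ : ∀ x, x ∈ K₀ ↔ A ^ N *ᵥ x = 0 := fun x => Iff.rfl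
  have mK₁ : ∀ x, x ∈ K₁ ↔ (A + 1) ^ N *ᵥ x = 0 := fun x => Iff.rfl
  have hsplit : ∀ z, (V * (A + 1) ^ N) *ᵥ z ∈ K₀ ∧ (U * A ^ N) *ᵥ z ∈ K₁ := by
    intro z
    have c1 : A ^ N * (V * (A + 1) ^ N) = 0 := by
      rw [← Matrix.mul_assoc, ← (hVA.pow_right N).eq, Matrix.mul_assoc, hN, Matrix.mul_zero]
    have c2 : (A + 1) ^ N * (U * A ^ N) = 0 := by
      have hc : Commute U (A + 1) := hUA.add_right (Commute.one_right _)
      have hc2 : Commute (A + 1) A := (Commute.refl A).add_left (Commute.one_left _)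
      rw [← Matrix.mul_assoc, ← (hc.pow_right N).eq, Matrix.mul_assoc, (hc2.pow_pow N N).eq, hN,
        Matrix.mul_zero]
    exact ⟨(mK₀ _).2 (by rw [Matrix.mulVec_mulVec, c1, Matrix.zero_mulVec]),
      (mK₁ _).2 (by rw [Matrix.mulVec_mulVec, c2, Matrix.zero_mulVec])⟩
  have hdec : ∀ z, (V * (A + 1) ^ N) *ᵥ z + (U * A ^ N) *ᵥ z = z := fun z => by
    rw [← Matrix.add_mulVec, add_comm, huv', Matrix.one_mulVec]
  have hiso₀ : ∀ x ∈ K₀, ∀ y ∈ K₀, Cfsg.sympForm n F x y = 0 := by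
    intro x hx y hy
    have hy' : y = (A + 1) ^ N *ᵥ (V *ᵥ y) := by
      have hc : Commute V (A + 1) := hVA.add_right (Commute.one_right _)
      conv_lhs => rw [← hdec y, ← Matrix.mulVec_mulVec y U, (mK₀ y).1 hy, Matrix.mulVec_zero, add_zero]
      rw [Matrix.mulVec_mulVec, (hc.pow_right N).eq]
    rw [hy']
    show x ⬝ᵥ (Jn[n] *ᵥ ((A + 1) ^ N *ᵥ (V *ᵥ y))) = 0
    rw [Matrix.mulVec_mulVec, (hs1.pow_right N).eq, ← Matrix.mulVec_mulVec, Matrix.dotProduct_mulVec,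
      neg_pow, ← transpose_pow]
    rcases neg_one_pow_eq_or (Mn[n]) N with h | h <;>
      simp only [h, Matrix.neg_mul, Matrix.one_mul, Matrix.vecMul_neg, vecMul_transpose, (mK₀ x).1 hx,
        neg_zero, zero_dotProduct]
  have hiso₁ : ∀ x ∈ K₁, ∀ y ∈ K₁, Cfsg.sympForm n F x y = 0 := by
    intro x hx y hy
    have hy' : y = A ^ N *ᵥ (U *ᵥ y) := by
      conv_lhs => rw [← hdec y, ← Matrix.mulVec_mulVec y V, (mK₁ y).1 hy, Matrix.mulVec_zero, zero_add]
      rw [Matrix.mulVec_mulVec, (hUA.pow_right N).eq]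
    rw [hy']
    show x ⬝ᵥ (Jn[n] *ᵥ (A ^ N *ᵥ (U *ᵥ y))) = 0
    rw [Matrix.mulVec_mulVec, (hs0.pow_right N).eq, ← Matrix.mulVec_mulVec, Matrix.dotProduct_mulVec,
      neg_pow, show Aᵀ + 1 = (A + 1)ᵀ by rw [transpose_add, transpose_one], ← transpose_pow]
    rcases neg_one_pow_eq_or (Mn[n]) N with h | h <;>
      simp only [h, Matrix.neg_mul, Matrix.one_mul, Matrix.vecMul_neg, vecMul_transpose, (mK₁ x).1 hx,
        neg_zero, zero_dotProduct]
  -- the pairing between the two halves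
  let pair₀ : K₀ →ₗ[F] Module.Dual F K₁ :=
    (Matrix.toBilin' Jn[n]).compl₁₂ K₀.subtype K₁.subtype
  let pair₁ : K₁ →ₗ[F] Module.Dual F K₀ :=
    (Matrix.toBilin' Jn[n]).compl₁₂ K₁.subtype K₀.subtype
  have hp₀ : ∀ (x : K₀) (y : K₁), pair₀ x y = Cfsg.sympForm n F x y := fun x y => by
    simp only [pair₀, LinearMap.compl₁₂_apply, Submodule.coe_subtype]
    exact Matrix.toBilin'_apply' _ _ _
  have hp₁ : ∀ (x : K₁) (y : K₀), pair₁ x y = Cfsg.sympForm n F x y := fun x y => by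
    simp only [pair₁, LinearMap.compl₁₂_apply, Submodule.coe_subtype]
    exact Matrix.toBilin'_apply' _ _ _
  have hi₀ : Function.Injective pair₀ := by
    rw [← LinearMap.ker_eq_bot, LinearMap.ker_eq_bot']
    intro x hx
    refine Subtype.ext (eq_zero_of_form_eq_zero fun z => ?_)
    rw [← hdec z, form_add_right, hiso₀ x x.2 _ (hsplit z).1, zero_add, ← hp₀ x ⟨_, (hsplit z).2⟩, hx]
    rfl
  have hi₁ : Function.Injective pair₁ := by
    rw [← LinearMap.ker_eq_bot, LinearMap.ker_eq_bot']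
    intro x hx
    refine Subtype.ext (eq_zero_of_form_eq_zero fun z => ?_)
    rw [← hdec z, form_add_right, hiso₁ x x.2 _ (hsplit z).2, add_zero, ← hp₁ x ⟨_, (hsplit z).1⟩, hx]
    rfl
  have hd₀ := LinearMap.finrank_le_finrank_of_injective hi₀
  have hd₁ := LinearMap.finrank_le_finrank_of_injective hi₁
  rw [Subspace.dual_finrank_eq] at hd₀ hd₁
  have hdisj : Disjoint K₀ K₁ := by
    rw [Submodule.disjoint_def]
    intro x h0 h1
    rw [← hdec x, ← Matrix.mulVec_mulVec, ← Matrix.mulVec_mulVec, (mK₁ x).1 h1, (mK₀ x).1 h0,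
      Matrix.mulVec_zero, Matrix.mulVec_zero, add_zero]
  have hc : IsCompl K₀ K₁ := ⟨hdisj, codisjoint_iff.2 <| Submodule.eq_top_iff'.2 fun z =>
    Submodule.mem_sup.2 ⟨_, (hsplit z).1, _, (hsplit z).2, hdec z⟩⟩
  have hsum := Submodule.finrank_add_eq_of_isCompl hc
  rw [Module.finrank_fintype_fun_eq_card] at hsum
  simp only [Fintype.card_sum, Fintype.card_fin] at hsum
  have hdim : finrank F K₁ = n := by omega
  let k : Basis (Fin n) F K₁ := Module.finBasisOfFinrankEq F K₁ hdim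
  have hsurj : Function.Surjective pair₀ :=
    (LinearMap.injective_iff_surjective_of_finrank_eq_finrank
      (by rw [Subspace.dual_finrank_eq]; omega)).1 hi₀
  choose e he using fun i => hsurj (-(k.coord i))
  let w : Fin n ⊕ Fin n → Fin n ⊕ Fin n → F :=
    Sum.elim (fun i => (e i : Fin n ⊕ Fin n → F)) (fun i => (k i : Fin n ⊕ Fin n → F))
  have hgram : ∀ i j, Cfsg.sympForm n F (w i) (w j) = Jn[n] i j := by
    rintro (i | i) (j | j) <;> simp only [w, Sum.elim_inl, Sum.elim_inr]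
    · rw [hiso₀ _ (e i).2 _ (e j).2]
      simp [Matrix.J]
    · rw [← hp₀, he]
      simp [Matrix.J, Matrix.one_apply, Finsupp.single_apply, eq_comm]
    · rw [form_swap, ← hp₀, he]
      simp [Matrix.J, Matrix.one_apply, Finsupp.single_apply]
    · rw [hiso₁ _ (k i).2 _ (k j).2]
      simp [Matrix.J]
  obtain ⟨h, hh⟩ := Frames.exists_mulVec_family
    (linearIndependent_of_gram _ (isUnit_J n) (fun i j => form_single (F := F) i j))
    (linearIndependent_of_gram _ (isUnit_J n) hgram) (fun i j => (form_single i j).trans (hgram i j).symm)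
  set M := cj h⁻¹ A with hM
  have hXA : ∀ (B : Mn[n]), Commute B A → ∀ x, B *ᵥ x = 0 → B *ᵥ (A *ᵥ x) = 0 := fun B hB x hx => by
    rw [Matrix.mulVec_mulVec, hB.eq, ← Matrix.mulVec_mulVec, hx, Matrix.mulVec_zero]
  have hcol : ∀ i j, M i j = (((h⁻¹ : Sp[n]) : Mn[n]) *ᵥ (A *ᵥ w j)) i := fun i j => by
    rw [← hh j, Matrix.mulVec_mulVec, Matrix.mulVec_mulVec, Matrix.mulVec_single_one, hM, cj_apply,
      inv_inv, Matrix.mul_assoc]
    rfl
  have hzero₀ : ∀ x ∈ K₀, ∀ i, (((h⁻¹ : Sp[n]) : Mn[n]) *ᵥ x) (Sum.inr i) = 0 := fun x hx i => by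
    have h1 := form_single_inl (((h⁻¹ : Sp[n]) : Mn[n]) *ᵥ x) i (1 : F)
    rw [← form_mulVec h, mulVec_inv_cancel, hh, mul_one] at h1
    rw [← h1]
    exact hiso₀ _ hx _ (e i).2
  have hzero₁ : ∀ x ∈ K₁, ∀ i, (((h⁻¹ : Sp[n]) : Mn[n]) *ᵥ x) (Sum.inl i) = 0 := fun x hx i => by
    have h1 := form_single_inr (((h⁻¹ : Sp[n]) : Mn[n]) *ᵥ x) i (1 : F)
    rw [← form_mulVec h, mulVec_inv_cancel, hh, mul_one] at h1
    rw [← neg_eq_zero, ← h1]
    exact hiso₁ _ hx _ (k i).2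
  have hMb : M = fromBlocks M.toBlocks₁₁ 0 0 M.toBlocks₂₂ := by
    have h12 : M.toBlocks₁₂ = 0 := Matrix.ext fun i j => (hcol (Sum.inl i) (Sum.inr j)).trans
      (hzero₁ _ ((mK₁ _).2 (hXA _ (((Commute.refl A).add_left (Commute.one_left A)).pow_left N) _
        ((mK₁ _).1 (k j).2))) i)
    have h21 : M.toBlocks₂₁ = 0 := Matrix.ext fun i j => (hcol (Sum.inr i) (Sum.inl j)).trans
      (hzero₀ _ ((mK₀ _).2 (hXA _ ((Commute.refl A).pow_left N) _ ((mK₀ _).1 (e j).2))) i)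
    conv_lhs => rw [← fromBlocks_toBlocks M, h12, h21]
  have hMS : M ∈ (famCay F).S n := (famCay F).conj_mem _ hA
  have hnil : M.toBlocks₁₁ ^ N = 0 := by
    refine Matrix.ext fun i j => ?_
    have h1 : M ^ N *ᵥ Pi.single (Sum.inl j) 1 = 0 := by
      rw [hM, ← map_pow, cj_apply, inv_inv, ← Matrix.mulVec_mulVec, ← Matrix.mulVec_mulVec, hh,
        show A ^ N *ᵥ w (Sum.inl j) = 0 from (mK₀ _).1 (e j).2, Matrix.mulVec_zero]
    have h2 := congrFun h1 (Sum.inl i)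
    rw [hMb, fromBlocks_diagonal_pow, Matrix.mulVec_single_one] at h2
    exact h2
  refine ⟨h, M.toBlocks₁₁, ⟨N, hnil⟩, ?_⟩
  rw [← mem_famCay_fromBlocks (hMb ▸ hMS), ← hMb, hM, cj_cj_inv]

theorem dia_unique {n : ℕ} {h h' : Sp[n]} {x x' : Matrix (Fin n) (Fin n) F}
    (hx : IsNilpotent x) (hx' : IsNilpotent x') (e : cj h (dia x) = cj h' (dia x')) :
    ∃ g : GL (Fin n) F, h' = h * Unipotent.levi g ∧
      x' = ((g⁻¹ : GL (Fin n) F) : Matrix (Fin n) (Fin n) F) * x * (g : Matrix (Fin n) (Fin n) F) := by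
  set M : Sp[n] := h⁻¹ * h' with hM
  have e1 : dia x = cj M (dia x') := by rw [hM, ← cj_cj, ← e, cj_inv_cj]
  have e2 : dia x * (M : Mn[n]) = (M : Mn[n]) * dia x' := by
    rw [e1, cj_apply, Matrix.mul_assoc, coe_inv_mul', Matrix.mul_one]
  set D := (M : Mn[n])
  rw [dia, dia, ← fromBlocks_toBlocks D, fromBlocks_multiply, fromBlocks_multiply, fromBlocks_inj] at e2
  simp only [Matrix.zero_mul, Matrix.mul_zero, add_zero, zero_add] at e2
  obtain ⟨e11, e12, e21, -⟩ := e2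
  have h12 := eq_zero_of_intertwine hx (isUnit_dia_lower hx') e12
  have h21 := eq_zero_of_intertwine' hx' (isUnit_dia_lower hx) e21
  have hDb : D = fromBlocks D.toBlocks₁₁ 0 0 D.toBlocks₂₂ := by
    conv_lhs => rw [← fromBlocks_toBlocks D, h12, h21]
  have hsym : Dᵀ * Jn[n] * D = Jn[n] := SymplecticGroup.mem_iff'.1 M.2
  rw [hDb, Matrix.J, fromBlocks_transpose, fromBlocks_multiply, fromBlocks_multiply, fromBlocks_inj] at hsym
  have hPQ : D.toBlocks₁₁ᵀ * D.toBlocks₂₂ = 1 := by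
    have := hsym.2.1
    simpa using this
  have hQP : D.toBlocks₁₁ * D.toBlocks₂₂ᵀ = 1 := by
    have := congrArg Matrix.transpose hPQ
    rw [transpose_mul, transpose_transpose, transpose_one] at this
    exact mul_eq_one_comm.1 this
  let g : GL (Fin n) F := ⟨D.toBlocks₁₁, D.toBlocks₂₂ᵀ, hQP, mul_eq_one_comm.1 hQP⟩
  refine ⟨g, ?_, ?_⟩
  · rw [← inv_mul_eq_iff_eq_mul]
    refine Subtype.ext ?_
    rw [Unipotent.coe_levi]
    show D = fromBlocks D.toBlocks₁₁ 0 0 D.toBlocks₂₂ᵀᵀ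
    rw [transpose_transpose, ← hDb]
  · rw [Matrix.mul_assoc]
    show x' = D.toBlocks₂₂ᵀ * (x * D.toBlocks₁₁)
    rw [e11, ← Matrix.mul_assoc, mul_eq_one_comm.1 hQP, Matrix.one_mul]

variable [Fintype F]

theorem card_nil_famCay (n : ℕ) :
    Nat.card ((famCay F).Nil n) * Nat.card (GL (Fin n) F) =
      Nat.card Sp[n] * CfsgLib.LinAlg.NilpotentCount.nilCount F n := by
  classical
  let ψ : Sp[n] × {x : Matrix (Fin n) (Fin n) F // IsNilpotent x} → (famCay F).Nil n := fun d =>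
    ⟨cj d.1 (dia d.2.1), (famCay F).conj_mem _ (dia_mem _),
      by rw [aeval_algHom_apply]; exact (isNilpotent_dia d.2.2).map _⟩
  rw [CfsgLib.LinAlg.NilpotentCount.nilCount, ← Nat.card_prod Sp[n]]
  refine card_mul_of_fibre ψ _ fun Z => ?_
  obtain ⟨h, x, hx, hZ⟩ := exists_dia_repr Z.2.1 Z.2.2
  have hnil : ∀ g : GL (Fin n) F, IsNilpotent
      (((g⁻¹ : GL (Fin n) F) : Matrix (Fin n) (Fin n) F) * x * (g : Matrix (Fin n) (Fin n) F)) := by
    intro g
    obtain ⟨N, hN⟩ := hx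
    exact ⟨N, by rw [Units.conj_pow', hN, Matrix.mul_zero, Matrix.zero_mul]⟩
  let η : GL (Fin n) F → {d : Sp[n] × {x : Matrix (Fin n) (Fin n) F // IsNilpotent x} // ψ d = Z} :=
    fun g => ⟨(h * Unipotent.levi g, ⟨_, hnil g⟩), Subtype.ext (by
      show cj (h * Unipotent.levi g) (dia _) = Z.1
      rw [hZ, ← cj_cj]
      congr 1
      have e1 : ((g⁻¹ : GL (Fin n) F) : Matrix (Fin n) (Fin n) F)ᵀ * (g : Matrix (Fin n) (Fin n) F)ᵀ = 1 := by
        rw [← transpose_mul, Units.mul_inv, transpose_one]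
      have e2 : ∀ Y : Matrix (Fin n) (Fin n) F, ((g⁻¹ : GL (Fin n) F) : Matrix (Fin n) (Fin n) F)ᵀ *
          ((g : Matrix (Fin n) (Fin n) F)ᵀ * Y) = Y := fun Y => by
        rw [← Matrix.mul_assoc, e1, Matrix.one_mul]
      rw [cj_apply, ← map_inv, Unipotent.coe_levi, Unipotent.coe_levi, inv_inv, dia, dia,
        fromBlocks_multiply, fromBlocks_multiply]
      congr 1 <;>
        simp only [Matrix.mul_assoc, transpose_mul, Matrix.mul_add, Matrix.add_mul, Matrix.mul_neg,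
          Matrix.neg_mul, Matrix.mul_zero, Matrix.zero_mul, Matrix.mul_one, Matrix.one_mul, add_zero,
          zero_add, neg_zero, neg_add, e1, e2, Units.mul_inv, Units.mul_inv_cancel_left])⟩
  refine (Nat.card_congr (Equiv.ofBijective η ⟨?_, ?_⟩)).symm
  · intro g g' hg
    have h1 := congrArg (fun s : Sp[n] => (s : Mn[n]))
      (mul_left_cancel (congrArg (fun d => d.1.1) hg))
    simp only [Unipotent.coe_levi] at h1
    exact Units.ext (fromBlocks_inj.1 h1).1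
  · rintro ⟨⟨h', x'⟩, hd⟩
    obtain ⟨g, e1, e2⟩ := dia_unique hx x'.2 (by rw [← hZ]; exact (congrArg Subtype.val hd).symm)
    exact ⟨g, Subtype.ext (Prod.ext e1.symm (Subtype.ext e2.symm))⟩

theorem card_famCay (n : ℕ) :
    Nat.card ((famCay F).S n) = Fintype.card F ^ (n * (2 * n + 1)) := by
  classical
  set b0 : Mn[n] := fromBlocks 0 1 0 0 with hb0
  have hb : b0 - b0ᵀ = -Jn[n] := by
    rw [hb0, Matrix.J, fromBlocks_transpose, fromBlocks_neg, sub_eq_add_neg, fromBlocks_neg,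
      fromBlocks_add]
    simp
  have hJ : Jn[n] * -Jn[n] = 1 := by rw [Matrix.mul_neg, J_squared, neg_neg]
  have hJ' : -Jn[n] * Jn[n] = 1 := by rw [Matrix.neg_mul, J_squared, neg_neg]
  let e : (famCay F).S n ≃ {s : Mn[n] // sᵀ = s} :=
    { toFun := fun A => ⟨Jn[n] * A.1 - b0, by
        have h : Jn[n] * A.1 + A.1ᵀ * Jn[n] = -Jn[n] := A.2
        have h2 : A.1ᵀ * Jn[n] = -Jn[n] - Jn[n] * A.1 := eq_sub_of_add_eq' h
        rw [transpose_sub, transpose_mul, J_transpose, Matrix.mul_neg, h2, ← hb]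
        abel⟩
      invFun := fun s => ⟨-Jn[n] * (s.1 + b0), by
        show Jn[n] * (-Jn[n] * (s.1 + b0)) + (-Jn[n] * (s.1 + b0))ᵀ * Jn[n] = -Jn[n]
        rw [← Matrix.mul_assoc, hJ, Matrix.one_mul, transpose_mul, transpose_neg, J_transpose, neg_neg,
          Matrix.mul_assoc, J_squared, Matrix.mul_neg, Matrix.mul_one, transpose_add, s.2, ← hb]
        abel⟩
      left_inv := fun A => Subtype.ext (by
        show -Jn[n] * (Jn[n] * A.1 - b0 + b0) = A.1
        rw [sub_add_cancel, ← Matrix.mul_assoc, hJ', Matrix.one_mul])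
      right_inv := fun s => Subtype.ext (by
        show Jn[n] * (-Jn[n] * (s.1 + b0)) - b0 = s.1
        rw [← Matrix.mul_assoc, hJ, Matrix.one_mul, add_sub_cancel_right]) }
  rw [Nat.card_congr e, Nat.card_congr (symmMatrixEquiv _), Nat.card_fun, Nat.card_eq_fintype_card,
    Nat.card_eq_fintype_card, Sym2.card, Fintype.card_sum, Fintype.card_fin]
  congr 1
  rw [Nat.choose_two_right, show (n + n + 1) * (n + n + 1 - 1) = 2 * (n * (2 * n + 1)) by
    rw [Nat.add_sub_cancel]; ring, Nat.mul_div_cancel_left _ two_pos]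

theorem qfac_succ (t : ℚ) (n : ℕ) : qfac t (n + 1) = qfac t n * (1 - t ^ (n + 1)) :=
  Finset.prod_range_succ _ _

theorem card_GL_cast (n : ℕ) :
    (Nat.card (GL (Fin n) F) : ℚ) =
      (Fintype.card F : ℚ) ^ (n * n) * qfac (Fintype.card F : ℚ)⁻¹ n := by
  induction n with
  | zero => simp [qfac]
  | succ n ih =>
    rw [CfsgLib.LinAlg.NilpotentCount.card_GL_succ, Nat.cast_mul, Nat.cast_mul,
      Nat.cast_sub (Nat.one_le_pow _ _ Fintype.card_pos), ih, qfac_succ]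
    have h0 : (Fintype.card F : ℚ) ≠ 0 := Nat.cast_ne_zero.2 Fintype.card_ne_zero
    push_cast
    rw [inv_pow]
    field_simp
    ring

theorem card_sp_cast (n : ℕ) :
    (Nat.card Sp[n] : ℚ) =
      (Fintype.card F : ℚ) ^ (2 * (n * n) + n) * qfac (((Fintype.card F : ℚ)⁻¹) ^ 2) n := by
  rw [card_symplecticGroup]
  induction n with
  | zero => simp [qfac]
  | succ n ih =>
    have h0 : (Fintype.card F : ℚ) ≠ 0 := Nat.cast_ne_zero.2 Fintype.card_ne_zero
    rw [Finset.prod_range_succ, qfac_succ,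
      show (n + 1) ^ 2 = n ^ 2 + (2 * n + 1) by ring, pow_add,
      show Fintype.card F ^ n ^ 2 * Fintype.card F ^ (2 * n + 1) *
          ((∏ i ∈ Finset.range n, (Fintype.card F ^ (2 * (i + 1)) - 1)) *
            (Fintype.card F ^ (2 * (n + 1)) - 1)) =
        (Fintype.card F ^ n ^ 2 * ∏ i ∈ Finset.range n, (Fintype.card F ^ (2 * (i + 1)) - 1)) *
          (Fintype.card F ^ (2 * n + 1) * (Fintype.card F ^ (2 * (n + 1)) - 1)) by ring,
      Nat.cast_mul, ih, Nat.cast_mul, Nat.cast_sub (Nat.one_le_pow _ _ Fintype.card_pos)]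
    push_cast
    rw [← pow_mul, inv_pow, inv_pow]
    field_simp
    ring

/-- The number of unipotent elements of `Sp_2m(q)`. -/
theorem card_unipotent (m : ℕ) :
    Nat.card ((famSp F).Nil m) = Fintype.card F ^ (2 * m ^ 2) := by
  classical
  set q : ℚ := (Fintype.card F : ℚ) with hq
  have hq0 : q ≠ 0 := Nat.cast_ne_zero.2 Fintype.card_ne_zero
  have hq1 : 1 < q := Nat.one_lt_cast.2 Fintype.one_lt_card
  set t : ℚ := q⁻¹
  have ht : ∀ k, t ^ (k + 1) ≠ 1 := fun k h =>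
    absurd h (pow_lt_one₀ (by positivity) (inv_lt_one_of_one_lt₀ hq1) (by omega)).ne
  have ht2 : ∀ k, (t ^ 2) ^ (k + 1) ≠ 1 := fun k => by rw [← pow_mul]; exact ht (2 * k + 1)
  let Z : (k : ℕ) → ℚ := fun k => (Nat.card Sp[k] : ℚ)
  have hZ : ∀ k, Z k ≠ 0 := fun k => Nat.cast_ne_zero.2 Nat.card_pos.ne'
  let U : PowerSeries ℚ := PowerSeries.mk fun k => (Nat.card ((famSp F).Nil k) : ℚ) / Z k
  let G : PowerSeries ℚ := PowerSeries.mk fun k => (Nat.card ((famSp F).Inv k) : ℚ) / Z k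
  have hUG : U * G = PowerSeries.mk fun _ => (1 : ℚ) := by
    ext k
    rw [PowerSeries.coeff_mul, PowerSeries.coeff_mk]
    have h := card_eq_sum (famSp F) k
    rw [show Nat.card ((famSp F).S k) = Nat.card Sp[k] from rfl, div_self (hZ k)] at h
    rw [h]
    exact Finset.sum_congr rfl fun p _ => by simp [U, G, Z]
  have h1 : (1 - PowerSeries.X) * (U * G) = 1 := by
    rw [hUG, mul_comm]
    exact PowerSeries.mk_one_mul_one_sub_eq_one ℚ
  have h2 : PowerSeries.rescale t (eSer t) * G = eSer (t ^ 2) := by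
    ext k
    rw [PowerSeries.coeff_mul]
    have h := card_eq_sum (famCay F) k
    rw [card_famCay, card_sp_cast, Nat.cast_pow, show k * (2 * k + 1) = 2 * (k * k) + k by ring,
      div_mul_cancel_left₀ (pow_ne_zero _ hq0)] at h
    simp only [eSer, PowerSeries.coeff_mk]
    rw [h]
    refine Finset.sum_congr rfl fun p _ => ?_
    rw [PowerSeries.coeff_rescale, Nat.card_congr (invCayEquiv p.2)]
    simp only [PowerSeries.coeff_mk, G, Z]
    congr 1
    have hn := congrArg (fun c : ℕ => (c : ℚ)) (card_nil_famCay (F := F) p.1)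
    simp only [Nat.cast_mul, CfsgLib.LinAlg.NilpotentCount.nilCount_eq, Nat.cast_pow, card_GL_cast] at hn
    have hg : qfac t p.1 ≠ 0 := qfac_ne_zero ht p.1
    have he : p.1 * p.1 = p.1 * (p.1 - 1) + p.1 := by
      rcases p.1 with _ | j
      · simp
      · rw [Nat.add_sub_cancel]; ring
    rw [he, pow_add] at hn
    have hn' : (Nat.card ((famCay F).Nil p.1) : ℚ) * (q ^ p.1 * qfac t p.1) = Z p.1 := by
      refine mul_left_cancel₀ (pow_ne_zero (p.1 * (p.1 - 1)) hq0) ?_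
      linear_combination hn
    rw [eq_div_iff (hZ p.1)]
    show t ^ p.1 * (qfac t p.1)⁻¹ * Z p.1 = _
    rw [← hn', inv_pow]
    field_simp
  have hU := congrArg (PowerSeries.coeff m) (eq_rescale_eSer ht h1 h2)
  rw [PowerSeries.coeff_rescale] at hU
  simp only [U, eSer, PowerSeries.coeff_mk, Z] at hU
  rw [div_eq_iff (hZ m)] at hU
  have hgoal : (Nat.card ((famSp F).Nil m) : ℚ) = q ^ (2 * m ^ 2) := by
    rw [hU]
    show t ^ m * (qfac (t ^ 2) m)⁻¹ * (Nat.card Sp[m] : ℚ) = _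
    rw [card_sp_cast, show t ^ m = (q ^ m)⁻¹ from inv_pow q m,
      show ((Fintype.card F : ℚ))⁻¹ ^ 2 = t ^ 2 from rfl, ← hq]
    have hg2 : qfac (t ^ 2) m ≠ 0 := qfac_ne_zero ht2 m
    rw [show 2 * (m * m) + m = 2 * m ^ 2 + m by ring, pow_add]
    field_simp
  rw [hq] at hgoal
  exact_mod_cast hgoal

/-- A symplectic element has `p`-power order iff it is unipotent. -/
theorem pPower_iff {p : ℕ} [Fact p.Prime] [CharP F p] {m : ℕ} (g : Sp[m]) :
    (∃ k : ℕ, orderOf g = p ^ k) ↔ IsNilpotent ((g : Mn[m]) - 1) := by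
  have hpow : ∀ (x : Mn[m]) (k : ℕ), (x - 1) ^ (p ^ k) = x ^ (p ^ k) - 1 := by
    intro x k
    have h : ((Polynomial.X : F[X]) - 1) ^ (p ^ k) = Polynomial.X ^ (p ^ k) - 1 := by
      rw [sub_pow_char_pow, one_pow]
    have := congrArg (aeval x) h
    simpa using this
  constructor
  · rintro ⟨k, hk⟩
    exact ⟨p ^ k, by rw [hpow, ← SubmonoidClass.coe_pow, ← hk, pow_orderOf_eq_one, Submonoid.coe_one,
      sub_self]⟩
  · rintro ⟨N, hN⟩
    have h1 : g ^ (p ^ N) = 1 := by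
      refine Subtype.ext ?_
      rw [SubmonoidClass.coe_pow, Submonoid.coe_one, ← sub_eq_zero, ← hpow]
      exact pow_eq_zero_of_le (Nat.lt_pow_self (Fact.out : p.Prime).one_lt).le hN
    obtain ⟨j, -, hj⟩ := (Nat.dvd_prime_pow Fact.out).1 (orderOf_dvd_of_pow_eq_one h1)
    exact ⟨j, hj⟩

/-- **Steinberg's count** for `Sp_2m(q)`. -/
theorem card_pPower (p : ℕ) [Fact p.Prime] [CharP F p] (m : ℕ) :
    Nat.card {g : Sp[m] // ∃ k : ℕ, orderOf g = p ^ k} = Fintype.card F ^ (2 * m ^ 2) := by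
  rw [← card_unipotent]
  refine Nat.card_congr
    { toFun := fun g => ⟨g.1.1, g.1.2, by rw [famSp_aeval]; exact (pPower_iff g.1).1 g.2⟩
      invFun := fun X => ⟨⟨X.1, X.2.1⟩, (pPower_iff _).2 (by
        have := X.2.2
        rwa [famSp_aeval] at this)⟩
      left_inv := fun g => rfl
      right_inv := fun X => rfl }

end CfsgLib.SympUnipCount
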