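import Cfsg.Agent.Classical.Symp.Frames
import Cfsg.Agent.Classical.Symp.Blocks
import Cfsg.Agent.LinAlg.Witt.Bases
import Cfsg.Agent.LinAlg.NilpotentCount

/-!
Splitting a class of matrices attached to the symplectic form along the Fitting decomposition of a
polynomial in the matrix, and the resulting counting identity.
-/

set_option autoImplicit false

namespace CfsgLib.SympUnipCount

open Matrix Module Polynomial CfsgLib.Classical.Symp CfsgLib.Classical.Symp.Blocks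

variable {F : Type*} [Field F]

local notation "Jn[" n "]" => Matrix.J (Fin n) F
local notation "Sp[" n "]" => Matrix.symplecticGroup (Fin n) F
local notation "Mn[" n "]" => Matrix (Fin n ⊕ Fin n) (Fin n ⊕ Fin n) F

/-- Diagonal blocks as an algebra map. -/
def diagBlocks (F : Type*) [Field F] (ι κ : Type*) [Fintype ι] [Fintype κ] [DecidableEq ι]
    [DecidableEq κ] : Matrix ι ι F × Matrix κ κ F →ₐ[F] Matrix (ι ⊕ κ) (ι ⊕ κ) F where
  toFun p := fromBlocks p.1 0 0 p.2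
  map_one' := fromBlocks_one
  map_mul' p q := by rw [fromBlocks_multiply]; simp
  map_zero' := fromBlocks_zero
  map_add' p q := by rw [fromBlocks_add]; simp
  commutes' r := by
    ext (i | i) (j | j) <;> simp [Matrix.algebraMap_matrix_apply]

/-- The block diagonal sum of two matrices on symplectic coordinates. -/
def blk (a b : ℕ) : Mn[a] × Mn[b] →ₐ[F] Mn[a + b] :=
  (reindexAlgEquiv F F (blockEquiv a b)).toAlgHom.comp (diagBlocks F _ _)

theorem blk_apply {a b : ℕ} (x : Mn[a]) (y : Mn[b]) :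
    blk a b (x, y) = reindexAlgEquiv F F (blockEquiv a b) (fromBlocks x 0 0 y) := rfl

theorem blk_injective (a b : ℕ) : Function.Injective (blk (F := F) a b) := by
  rintro ⟨x, y⟩ ⟨x', y'⟩ h
  rw [blk_apply, blk_apply] at h
  obtain ⟨h1, -, -, h4⟩ := fromBlocks_inj.1 ((reindexAlgEquiv F F (blockEquiv a b)).injective h)
  exact Prod.ext h1 h4

theorem blk_transpose {a b : ℕ} (x : Mn[a]) (y : Mn[b]) :
    (blk a b (x, y))ᵀ = blk a b (xᵀ, yᵀ) := by
  rw [blk_apply, blk_apply, transpose_reindexAlgEquiv, fromBlocks_transpose]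
  simp

theorem blk_J (a b : ℕ) : blk a b (Jn[a], Jn[b]) = Jn[a + b] := reindex_fromBlocks_J

theorem blk_mem_symplectic {a b : ℕ} (x : Mn[a]) (y : Mn[b]) :
    blk a b (x, y) ∈ Sp[a + b] ↔ x ∈ Sp[a] ∧ y ∈ Sp[b] := by
  rw [SymplecticGroup.mem_iff', SymplecticGroup.mem_iff', SymplecticGroup.mem_iff', ← blk_J,
    blk_transpose, ← map_mul, ← map_mul]
  constructor
  · intro h
    have h' := blk_injective a b h
    exact ⟨congrArg Prod.fst h', congrArg Prod.snd h'⟩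
  · rintro ⟨h1, h2⟩
    exact congrArg (blk a b) (Prod.ext h1 h2)

theorem coe_blockSp_eq {a b : ℕ} (s : Sp[a]) (t : Sp[b]) :
    (blockSp a b F (s, t) : Mn[a + b]) = blk a b ((s : Mn[a]), (t : Mn[b])) := rfl

theorem coe_mul_inv {n : ℕ} (h : Sp[n]) : (h : Mn[n]) * ((h⁻¹ : Sp[n]) : Mn[n]) = 1 := by
  rw [← Submonoid.coe_mul, mul_inv_cancel, Submonoid.coe_one]

theorem coe_inv_mul' {n : ℕ} (h : Sp[n]) : ((h⁻¹ : Sp[n]) : Mn[n]) * (h : Mn[n]) = 1 := by
  rw [← Submonoid.coe_mul, inv_mul_cancel, Submonoid.coe_one]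

theorem isUnit_coe {n : ℕ} (h : Sp[n]) : IsUnit (h : Mn[n]) :=
  ⟨⟨_, _, coe_mul_inv h, coe_inv_mul' h⟩, rfl⟩

/-- Conjugation by a symplectic matrix. -/
def cj {n : ℕ} (h : Sp[n]) : Mn[n] →ₐ[F] Mn[n] where
  toFun X := (h : Mn[n]) * X * ((h⁻¹ : Sp[n]) : Mn[n])
  map_one' := by rw [Matrix.mul_one, coe_mul_inv]
  map_mul' X Y := by
    rw [show (h : Mn[n]) * X * ((h⁻¹ : Sp[n]) : Mn[n]) * ((h : Mn[n]) * Y * ((h⁻¹ : Sp[n]) : Mn[n]))
      = (h : Mn[n]) * X * (((h⁻¹ : Sp[n]) : Mn[n]) * (h : Mn[n])) * Y * ((h⁻¹ : Sp[n]) : Mn[n]) by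
      simp only [Matrix.mul_assoc], coe_inv_mul', Matrix.mul_one]
    simp only [Matrix.mul_assoc]
  map_zero' := by rw [Matrix.mul_zero, Matrix.zero_mul]
  map_add' X Y := by rw [Matrix.mul_add, Matrix.add_mul]
  commutes' r := by
    rw [Algebra.algebraMap_eq_smul_one, Matrix.mul_smul, Matrix.mul_one, Matrix.smul_mul,
      coe_mul_inv]

theorem cj_apply {n : ℕ} (h : Sp[n]) (X : Mn[n]) :
    cj h X = (h : Mn[n]) * X * ((h⁻¹ : Sp[n]) : Mn[n]) := rfl

theorem cj_cj {n : ℕ} (h k : Sp[n]) (X : Mn[n]) : cj h (cj k X) = cj (h * k) X := by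
  simp only [cj_apply, _root_.mul_inv_rev, Submonoid.coe_mul, Matrix.mul_assoc]

theorem cj_one {n : ℕ} (X : Mn[n]) : cj (1 : Sp[n]) X = X := by simp [cj_apply]

theorem cj_inv_cj {n : ℕ} (h : Sp[n]) (X : Mn[n]) : cj h⁻¹ (cj h X) = X := by
  rw [cj_cj, inv_mul_cancel, cj_one]

theorem cj_cj_inv {n : ℕ} (h : Sp[n]) (X : Mn[n]) : cj h (cj h⁻¹ X) = X := by
  rw [cj_cj, mul_inv_cancel, cj_one]

theorem rank_cj {n : ℕ} (h : Sp[n]) (X : Mn[n]) : (cj h X).rank = X.rank := by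
  rw [cj_apply, rank_mul_eq_left_of_isUnit_det _ _ ((isUnit_iff_isUnit_det _).1 (isUnit_coe h⁻¹)),
    rank_mul_eq_right_of_isUnit_det _ _ ((isUnit_iff_isUnit_det _).1 (isUnit_coe h))]

theorem rank_blk_zero_unit {a b : ℕ} {V : Mn[b]} (hV : IsUnit V) :
    (blk a b ((0 : Mn[a]), V)).rank = 2 * b := by
  classical
  have hu : IsUnit (blk a b ((1 : Mn[a]), V)) := (Prod.isUnit_iff.2 ⟨isUnit_one, hV⟩).map (blk a b)
  rw [show ((0 : Mn[a]), V) = ((0 : Mn[a]), (1 : Mn[b])) * ((1 : Mn[a]), V) by simp, map_mul,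
    rank_mul_eq_left_of_isUnit_det _ _ ((isUnit_iff_isUnit_det _).1 hu), blk_apply,
    reindexAlgEquiv_apply, rank_reindex,
    show fromBlocks (0 : Mn[a]) 0 0 (1 : Mn[b]) =
      diagonal (Sum.elim (fun _ => (0 : F)) (fun _ => 1)) by
      rw [← fromBlocks_diagonal]; simp, rank_diagonal]
  have : (Finset.univ.filter fun i : (Fin a ⊕ Fin a) ⊕ (Fin b ⊕ Fin b) =>
      Sum.elim (fun _ => (0 : F)) (fun _ => 1) i ≠ 0) = Finset.univ.map Function.Embedding.inr := by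
    ext i
    rcases i with i | i <;> simp
  rw [Fintype.card_subtype, this, Finset.card_map, Finset.card_univ]
  simp [two_mul]

theorem isUnit_of_rank_eq {ι : Type*} [Fintype ι] [DecidableEq ι] {V : Matrix ι ι F}
    (h : Fintype.card ι ≤ V.rank) : IsUnit V := by
  rw [← Matrix.mulVec_surjective_iff_isUnit]
  have h1 : LinearMap.range V.mulVecLin = ⊤ := by
    refine Submodule.eq_top_of_finrank_eq (le_antisymm (Submodule.finrank_le _) ?_)
    rw [Module.finrank_fintype_fun_eq_card]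
    exact h
  exact fun y => LinearMap.range_eq_top.1 h1 y

theorem rank_blk_zero_le {a b : ℕ} (V : Mn[b]) : (blk a b ((0 : Mn[a]), V)).rank ≤ V.rank := by
  classical
  rw [blk_apply, reindexAlgEquiv_apply, rank_reindex,
    show fromBlocks (0 : Mn[a]) 0 0 V =
      (fromRows (0 : Matrix (Fin a ⊕ Fin a) (Fin b ⊕ Fin b) F) (1 : Mn[b])) * V *
        (fromCols (0 : Matrix (Fin b ⊕ Fin b) (Fin a ⊕ Fin a) F) (1 : Mn[b])) by
      rw [fromRows_mul, fromRows_mul_fromCols]; simp]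
  exact (rank_mul_le_left _ _).trans (rank_mul_le_right _ _)

/-- Intertwining a nilpotent with an invertible matrix gives zero. -/
theorem eq_zero_of_intertwine {ι κ : Type*} [Fintype ι] [Fintype κ] [DecidableEq ι] [DecidableEq κ]
    {A : Matrix ι ι F} {C : Matrix κ κ F} {Z : Matrix ι κ F} (hA : IsNilpotent A) (hC : IsUnit C)
    (h : A * Z = Z * C) : Z = 0 := by
  obtain ⟨N, hN⟩ := hA
  have hp : ∀ k, A ^ k * Z = Z * C ^ k := by
    intro k
    induction k with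
    | zero => simp
    | succ k ih => rw [pow_succ, pow_succ, Matrix.mul_assoc, h, ← Matrix.mul_assoc, ih, Matrix.mul_assoc]
  have h1 := hp N
  rw [hN, Matrix.zero_mul] at h1
  obtain ⟨u, hu⟩ := hC.pow N
  rw [← hu] at h1
  have h2 := congrArg (fun W => W * ((u⁻¹ : (Matrix κ κ F)ˣ) : Matrix κ κ F)) h1
  simpa [Matrix.mul_assoc] using h2.symm

theorem eq_zero_of_intertwine' {ι κ : Type*} [Fintype ι] [Fintype κ] [DecidableEq ι] [DecidableEq κ]
    {A : Matrix ι ι F} {C : Matrix κ κ F} {Z : Matrix κ ι F} (hA : IsNilpotent A) (hC : IsUnit C)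
    (h : C * Z = Z * A) : Z = 0 := by
  have h' : Aᵀ * Zᵀ = Zᵀ * Cᵀ := by rw [← transpose_mul, ← transpose_mul, h]
  have := eq_zero_of_intertwine (A := Aᵀ) (C := Cᵀ) ?_ ?_ h'
  · simpa using congrArg Matrix.transpose this
  · obtain ⟨N, hN⟩ := hA
    exact ⟨N, by rw [← transpose_pow, hN, transpose_zero]⟩
  · exact (isUnit_transpose C).2 hC

/-! ### Adapted symplectic matrices -/

theorem linearIndependent_of_gram {n : ℕ} {κ : Type*} [Fintype κ] [DecidableEq κ]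
    (w : κ → Fin n ⊕ Fin n → F) {G : Matrix κ κ F} (hG : IsUnit G)
    (h : ∀ i j, Cfsg.sympForm n F (w i) (w j) = G i j) : LinearIndependent F w := by
  rw [Fintype.linearIndependent_iff]
  intro c hc i
  have h1 : c ᵥ* G = 0 := funext fun j => by
    have h2 : Cfsg.sympForm n F (∑ i, c i • w i) (w j) = 0 := by rw [hc, form_zero_left]
    rw [show Cfsg.sympForm n F (∑ i, c i • w i) (w j) = ∑ i, c i * G i j by
      simp only [Cfsg.sympForm, sum_dotProduct, smul_dotProduct, smul_eq_mul]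
      exact Finset.sum_congr rfl fun i _ => congrArg _ (h i j)] at h2
    exact h2
  have h3 := Matrix.vecMul_injective_of_isUnit hG (h1.trans (zero_vecMul G).symm)
  exact congrFun h3 i

theorem exists_gram_family {n : ℕ} {U : Submodule F (Fin n ⊕ Fin n → F)}
    (hU : ∀ x ∈ U, (∀ y ∈ U, Cfsg.sympForm n F x y = 0) → x = 0) :
    ∃ c, finrank F U = 2 * c ∧ ∃ w : Fin c ⊕ Fin c → Fin n ⊕ Fin n → F,
      (∀ i, w i ∈ U) ∧ ∀ i j, Cfsg.sympForm n F (w i) (w j) = Jn[c] i j := by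
  classical
  let B : LinearMap.BilinForm F (Fin n ⊕ Fin n → F) := Matrix.toBilin' Jn[n]
  have hB : ∀ x y, B x y = Cfsg.sympForm n F x y := fun x y => Matrix.toBilin'_apply' _ _ _
  obtain ⟨c, b, hc, hef, hee, hff⟩ := CfsgLib.LinAlg.Witt.exists_symplectic_basis
    (B.compl₁₂ U.subtype U.subtype)
    (fun x => by rw [LinearMap.compl₁₂_apply, hB]; exact form_self _)
    (LinearMap.ker_eq_bot'.2 fun x h => Subtype.ext (hU x x.2 fun y hy => by
      rw [← hB]; exact LinearMap.congr_fun h ⟨y, hy⟩))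
  simp only [LinearMap.compl₁₂_apply, hB, Submodule.coe_subtype] at hef hee hff
  refine ⟨c, hc, fun i => (b i.swap : U), fun i => (b _).2, ?_⟩
  rintro (i | i) (j | j) <;> simp only [Sum.swap_inl, Sum.swap_inr]
  · simpa [Matrix.J] using hff i j
  · rw [form_swap, hef]
    simp [Matrix.J, Matrix.one_apply, eq_comm]
  · rw [hef]
    simp [Matrix.J, Matrix.one_apply]
  · simpa [Matrix.J] using hee i j

theorem isUnit_J (n : ℕ) : IsUnit Jn[n] :=
  (isUnit_iff_isUnit_det _).2 (isUnit_det_J (Fin n) F)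

theorem form_single {n : ℕ} (i j : Fin n ⊕ Fin n) :
    Cfsg.sympForm n F (Pi.single i 1) (Pi.single j 1) = Jn[n] i j := by
  simp [Cfsg.sympForm, single_dotProduct]

theorem J_blockEquiv {a b : ℕ} (i j : (Fin a ⊕ Fin a) ⊕ (Fin b ⊕ Fin b)) :
    Jn[a + b] (blockEquiv a b i) (blockEquiv a b j) = fromBlocks Jn[a] 0 0 Jn[b] i j := by
  rw [← blk_J, blk_apply, reindexAlgEquiv_apply, reindex_apply, submatrix_apply,
    Equiv.symm_apply_apply, Equiv.symm_apply_apply]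

/-- A symplectic matrix adapted to an orthogonal decomposition. -/
theorem exists_adapted {a b : ℕ} (K R : Submodule F (Fin (a + b) ⊕ Fin (a + b) → F))
    (hc : IsCompl K R) (hK : finrank F K = 2 * a)
    (ho : ∀ x ∈ K, ∀ y ∈ R, Cfsg.sympForm (a + b) F x y = 0) :
    ∃ h : Sp[a + b],
      (∀ i, (h : Mn[a + b]) *ᵥ Pi.single (blockEquiv a b (Sum.inl i)) 1 ∈ K) ∧
      ∀ X : Mn[a + b], (∀ v ∈ K, X *ᵥ v ∈ K) → (∀ v ∈ R, X *ᵥ v ∈ R) →
        ∃ x y, cj h⁻¹ X = blk a b (x, y) := by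
  classical
  have hsplit : ∀ z, ∃ u ∈ K, ∃ v ∈ R, u + v = z := fun z =>
    Submodule.mem_sup.1 (hc.sup_eq_top ▸ Submodule.mem_top)
  have hKn : ∀ x ∈ K, (∀ y ∈ K, Cfsg.sympForm (a + b) F x y = 0) → x = 0 := fun x hx h =>
    eq_zero_of_form_eq_zero fun z => by
      obtain ⟨u, hu, v, hv, rfl⟩ := hsplit z
      rw [form_add_right, h u hu, ho x hx v hv, add_zero]
  have hRn : ∀ x ∈ R, (∀ y ∈ R, Cfsg.sympForm (a + b) F x y = 0) → x = 0 := fun x hx h =>
    eq_zero_of_form_eq_zero fun z => by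
      obtain ⟨u, hu, v, hv, rfl⟩ := hsplit z
      rw [form_add_right, h v hv, form_eq_zero_comm.1 (ho u hu x hx), add_zero]
  obtain ⟨a', ha', wK, hwK, gK⟩ := exists_gram_family hKn
  obtain ⟨b', hb', wR, hwR, gR⟩ := exists_gram_family hRn
  have hsum := Submodule.finrank_add_eq_of_isCompl hc
  rw [Module.finrank_fintype_fun_eq_card] at hsum
  simp only [Fintype.card_sum, Fintype.card_fin] at hsum
  obtain rfl : a' = a := by omega
  obtain rfl : b' = b := by omega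
  let w : (Fin a' ⊕ Fin a') ⊕ (Fin b' ⊕ Fin b') → Fin (a' + b') ⊕ Fin (a' + b') → F := Sum.elim wK wR
  have hgram : ∀ i j, Cfsg.sympForm (a' + b') F (w i) (w j) = fromBlocks Jn[a'] 0 0 Jn[b'] i j := by
    rintro (i | i) (j | j) <;> simp only [w, Sum.elim_inl, Sum.elim_inr, fromBlocks_apply₁₁,
      fromBlocks_apply₁₂, fromBlocks_apply₂₁, fromBlocks_apply₂₂, Matrix.zero_apply]
    · exact gK i j
    · exact ho _ (hwK i) _ (hwR j)
    · exact form_eq_zero_comm.1 (ho _ (hwK j) _ (hwR i))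
    · exact gR i j
  have hunit : IsUnit (fromBlocks Jn[a'] 0 0 Jn[b']) :=
    (Prod.isUnit_iff (x := (Jn[a'], Jn[b']))).2 ⟨isUnit_J a', isUnit_J b'⟩ |>.map (diagBlocks F _ _)
  have hstd : ∀ i j, Cfsg.sympForm (a' + b') F (Pi.single (blockEquiv a' b' i) 1)
      (Pi.single (blockEquiv a' b' j) 1) = fromBlocks Jn[a'] 0 0 Jn[b'] i j := fun i j => by
    rw [form_single, J_blockEquiv]
  obtain ⟨h, hh⟩ := Frames.exists_mulVec_family (linearIndependent_of_gram _ hunit hstd)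
    (linearIndependent_of_gram _ hunit hgram) (fun i j => (hstd i j).trans (hgram i j).symm)
  refine ⟨h, fun i => by rw [hh]; exact hwK i, fun X hXK hXR => ?_⟩
  obtain ⟨D, hD⟩ : ∃ D, reindexAlgEquiv F F (blockEquiv a' b') D = cj h⁻¹ X :=
    (reindexAlgEquiv F F (blockEquiv a' b')).surjective _
  have hentry : ∀ i j, D i j = (((h⁻¹ : Sp[a' + b']) : Mn[a' + b']) *ᵥ (X *ᵥ w j))
      (blockEquiv a' b' i) := fun i j => by
    have := congrFun (congrFun hD (blockEquiv a' b' i)) (blockEquiv a' b' j)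
    rw [reindexAlgEquiv_apply, reindex_apply, submatrix_apply, Equiv.symm_apply_apply,
      Equiv.symm_apply_apply, cj_apply, inv_inv] at this
    rw [this, ← hh j, Matrix.mulVec_mulVec, Matrix.mulVec_mulVec, Matrix.mulVec_single_one]
    rfl
  have hz1 : ∀ v ∈ K, ∀ i : Fin b' ⊕ Fin b',
      (((h⁻¹ : Sp[a' + b']) : Mn[a' + b']) *ᵥ v) (blockEquiv a' b' (Sum.inr i)) = 0 := by
    intro v hv
    set u := ((h⁻¹ : Sp[a' + b']) : Mn[a' + b']) *ᵥ v with hu
    have h0 : (fun i => u (blockEquiv a' b' (Sum.inr i))) ᵥ* Jn[b'] = 0 := funext fun i => by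
      have h1 : Cfsg.sympForm (a' + b') F u (Pi.single (blockEquiv a' b' (Sum.inr i)) 1) = 0 := by
        rw [← form_mulVec h, hu, mulVec_inv_cancel, hh]
        exact ho v hv _ (hwR i)
      rw [show Cfsg.sympForm (a' + b') F u (Pi.single (blockEquiv a' b' (Sum.inr i)) 1) =
          ∑ l, u (blockEquiv a' b' l) * Jn[a' + b'] (blockEquiv a' b' l) (blockEquiv a' b' (Sum.inr i)) by
        rw [Equiv.sum_comp (blockEquiv a' b') (fun k => u k * Jn[a' + b'] k (blockEquiv a' b' (Sum.inr i)))]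
        simp [Cfsg.sympForm, Matrix.mulVec_single_one, dotProduct]] at h1
      simpa [J_blockEquiv, Fintype.sum_sum_type, Matrix.vecMul, dotProduct] using h1
    intro i
    exact congrFun (Matrix.vecMul_injective_of_isUnit (isUnit_J b') (h0.trans (zero_vecMul _).symm)) i
  have hz2 : ∀ v ∈ R, ∀ i : Fin a' ⊕ Fin a',
      (((h⁻¹ : Sp[a' + b']) : Mn[a' + b']) *ᵥ v) (blockEquiv a' b' (Sum.inl i)) = 0 := by
    intro v hv
    set u := ((h⁻¹ : Sp[a' + b']) : Mn[a' + b']) *ᵥ v with hu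
    have h0 : (fun i => u (blockEquiv a' b' (Sum.inl i))) ᵥ* Jn[a'] = 0 := funext fun i => by
      have h1 : Cfsg.sympForm (a' + b') F u (Pi.single (blockEquiv a' b' (Sum.inl i)) 1) = 0 := by
        rw [← form_mulVec h, hu, mulVec_inv_cancel, hh]
        exact form_eq_zero_comm.1 (ho _ (hwK i) v hv)
      rw [show Cfsg.sympForm (a' + b') F u (Pi.single (blockEquiv a' b' (Sum.inl i)) 1) =
          ∑ l, u (blockEquiv a' b' l) * Jn[a' + b'] (blockEquiv a' b' l) (blockEquiv a' b' (Sum.inl i)) by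
        rw [Equiv.sum_comp (blockEquiv a' b') (fun k => u k * Jn[a' + b'] k (blockEquiv a' b' (Sum.inl i)))]
        simp [Cfsg.sympForm, Matrix.mulVec_single_one, dotProduct]] at h1
      simpa [J_blockEquiv, Fintype.sum_sum_type, Matrix.vecMul, dotProduct] using h1
    intro i
    exact congrFun (Matrix.vecMul_injective_of_isUnit (isUnit_J a') (h0.trans (zero_vecMul _).symm)) i
  refine ⟨D.toBlocks₁₁, D.toBlocks₂₂, ?_⟩
  rw [← hD, blk_apply]
  refine congrArg _ ((fromBlocks_toBlocks D).symm.trans ?_)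
  have h12 : D.toBlocks₁₂ = 0 :=
    Matrix.ext fun i j => (hentry (Sum.inl i) (Sum.inr j)).trans (hz2 _ (hXR _ (hwR j)) i)
  have h21 : D.toBlocks₂₁ = 0 :=
    Matrix.ext fun i j => (hentry (Sum.inr i) (Sum.inl j)).trans (hz1 _ (hXK _ (hwK j)) i)
  rw [h12, h21]

/-! ### The generic counting identity -/

variable (F) in
/-- A class of matrices with a distinguished polynomial, compatible with blocks. -/
structure Fam where
  /-- The class in each rank. -/
  S : ∀ n, Set (Matrix (Fin n ⊕ Fin n) (Fin n ⊕ Fin n) F)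
  /-- The polynomial. -/
  P : F[X]
  conj_mem : ∀ {n : ℕ} (h : Sp[n]) {X : Mn[n]}, X ∈ S n → cj h X ∈ S n
  blk_mem : ∀ {a b : ℕ} (x : Mn[a]) (y : Mn[b]), blk a b (x, y) ∈ S (a + b) ↔ x ∈ S a ∧ y ∈ S b
  adj : ∀ {n : ℕ} {X : Mn[n]}, X ∈ S n → ∃ U, IsUnit U ∧ Commute U (aeval X P) ∧
    Jn[n] * (U * aeval X P) = (aeval X P)ᵀ * Jn[n]

variable (fam : Fam F)

/-- Members with nilpotent polynomial value. -/
def Fam.Nil (n : ℕ) : Type _ := {X : Mn[n] // X ∈ fam.S n ∧ IsNilpotent (aeval X fam.P)}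

/-- Members with invertible polynomial value. -/
def Fam.Inv (n : ℕ) : Type _ := {X : Mn[n] // X ∈ fam.S n ∧ IsUnit (aeval X fam.P)}

theorem aeval_blk {a b : ℕ} (P : F[X]) (x : Mn[a]) (y : Mn[b]) :
    aeval (blk a b (x, y)) P = blk a b (aeval x P, aeval y P) := by
  rw [aeval_algHom_apply, Polynomial.aeval_prod_apply]

theorem pow_cast_zero {a k : ℕ} {A : Mn[a]} (hA : IsNilpotent A) (hk : 2 * a ≤ k) : A ^ k = 0 :=
  pow_eq_zero_of_le (by simpa [two_mul] using hk)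
    (CfsgLib.LinAlg.NilpotentCount.pow_card_eq_zero hA)

theorem exists_stratum_repr {a b : ℕ} {X : Mn[a + b]} (hX : X ∈ fam.S (a + b))
    (hr : ((aeval X fam.P) ^ (2 * (a + b))).rank = 2 * b) :
    ∃ (h : Sp[a + b]) (x : fam.Nil a) (y : fam.Inv b), X = cj h (blk a b (x.1, y.1)) := by
  classical
  set T := aeval X fam.P with hT
  set N := 2 * (a + b) with hN
  set f : Module.End F (Fin (a + b) ⊕ Fin (a + b) → F) := Matrix.toLinAlgEquiv' T with hf
  have hfN : ∀ v, (f ^ N) v = T ^ N *ᵥ v := fun v => by rw [hf, ← map_pow]; rfl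
  set K := LinearMap.ker (f ^ N) with hKdef
  set R := LinearMap.range (f ^ N) with hRdef
  have hV : finrank F (Fin (a + b) ⊕ Fin (a + b) → F) = N := by
    rw [Module.finrank_fintype_fun_eq_card]; simp [hN, two_mul]
  have hR : finrank F R = 2 * b := by
    have h1 : (T ^ N).mulVecLin = f ^ N := LinearMap.ext fun v => by rw [hfN]; rfl
    rw [← hr, Matrix.rank, h1]
  have hK : finrank F K = 2 * a := by
    have := (f ^ N).finrank_range_add_finrank_ker
    rw [hV] at this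
    change finrank F R + finrank F K = N at this
    omega
  have hdisj : Disjoint K R := by
    rw [Submodule.disjoint_def]
    rintro x hx ⟨y, rfl⟩
    have h2 : y ∈ LinearMap.ker (f ^ (N + N)) := by
      rw [LinearMap.mem_ker, pow_add]
      exact hx
    rw [Module.End.ker_pow_eq_ker_pow_finrank_of_le (by rw [hV]; omega), hV] at h2
    exact h2
  have hc : IsCompl K R := Submodule.isCompl_iff_disjoint K R (by rw [hK, hR, hV]; omega) |>.2 hdisj
  obtain ⟨U, hUu, hcomm, hadj⟩ := fam.adj hX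
  have ho : ∀ x ∈ K, ∀ y ∈ R, Cfsg.sympForm (a + b) F x y = 0 := by
    rintro x hx _ ⟨z, rfl⟩
    rw [hKdef, LinearMap.mem_ker, hfN] at hx
    have hsc : SemiconjBy Jn[a + b] (U * T) Tᵀ := hadj
    have h2 : (T ^ N)ᵀ * Jn[a + b] = Jn[a + b] * (U ^ N * T ^ N) := by
      rw [transpose_pow, ← hcomm.mul_pow, (hsc.pow_right N).eq]
    rw [form_eq_zero_comm, hfN]
    show (T ^ N *ᵥ z) ⬝ᵥ (Jn[a + b] *ᵥ x) = 0
    rw [← vecMul_transpose, ← Matrix.dotProduct_mulVec, Matrix.mulVec_mulVec, h2, ← Matrix.mulVec_mulVec,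
      ← Matrix.mulVec_mulVec, hx, Matrix.mulVec_zero, Matrix.mulVec_zero, dotProduct_zero]
  obtain ⟨h, hhK, hadapt⟩ := exists_adapted K R hc hK ho
  have hXT : X * T = T * X := by
    rw [hT]
    nth_rewrite 1 [← aeval_X (R := F) X]
    nth_rewrite 4 [← aeval_X (R := F) X]
    rw [← map_mul, ← map_mul, mul_comm]
  have hXN : ∀ v, T ^ N *ᵥ (X *ᵥ v) = X *ᵥ (T ^ N *ᵥ v) := fun v => by
    rw [Matrix.mulVec_mulVec, Matrix.mulVec_mulVec, (Commute.pow_right hXT N).eq]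
  obtain ⟨x, y, hxy⟩ := hadapt X
    (fun v hv => by
      rw [hKdef, LinearMap.mem_ker, hfN] at hv ⊢
      rw [hXN, hv, Matrix.mulVec_zero])
    (fun v hv => by
      obtain ⟨z, rfl⟩ := hv
      exact ⟨X *ᵥ z, by rw [hfN, hfN, hXN]⟩)
  obtain ⟨hx, hy⟩ := (fam.blk_mem x y).1 (hxy ▸ fam.conj_mem h⁻¹ hX)
  have hTN : cj h⁻¹ (T ^ N) = blk a b ((aeval x fam.P) ^ N, (aeval y fam.P) ^ N) := by
    rw [map_pow, hT, ← aeval_algHom_apply, hxy, aeval_blk, ← map_pow, Prod.pow_mk]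
  have hnil : (aeval x fam.P) ^ N = 0 := by
    refine Matrix.ext fun i j => ?_
    have h1 : cj h⁻¹ (T ^ N) *ᵥ Pi.single (blockEquiv a b (Sum.inl j)) 1 = 0 := by
      have h0 := hhK j
      rw [hKdef, LinearMap.mem_ker, hfN] at h0
      rw [cj_apply, inv_inv, ← Matrix.mulVec_mulVec, ← Matrix.mulVec_mulVec, h0, Matrix.mulVec_zero]
    have h2 := congrFun h1 (blockEquiv a b (Sum.inl i))
    rw [hTN, Matrix.mulVec_single_one] at h2
    simpa [blk_apply] using h2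
  have hinv : IsUnit (aeval y fam.P) := by
    have h1 : (blk a b ((0 : Mn[a]), (aeval y fam.P) ^ N)).rank = 2 * b := by
      rw [← hnil, ← hTN, rank_cj, hr]
    have h2 := h1 ▸ rank_blk_zero_le (a := a) ((aeval y fam.P) ^ N)
    have h3 : IsUnit ((aeval y fam.P) ^ N) := isUnit_of_rank_eq (by simpa [two_mul] using h2)
    rcases Nat.eq_zero_or_pos N with h0 | h0
    · have hb0 : b = 0 := by omega
      subst hb0
      exact ⟨1, Subsingleton.elim _ _⟩
    · exact (isUnit_pow_iff h0.ne').1 h3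
  refine ⟨h, ⟨x, hx, N, hnil⟩, ⟨y, hy, hinv⟩, ?_⟩
  show X = cj h (blk a b (x, y))
  rw [← hxy, cj_cj_inv]

theorem stratum_mem {a b : ℕ} (h : Sp[a + b]) (x : fam.Nil a) (y : fam.Inv b) :
    cj h (blk a b (x.1, y.1)) ∈ fam.S (a + b) ∧
      ((aeval (cj h (blk a b (x.1, y.1))) fam.P) ^ (2 * (a + b))).rank = 2 * b := by
  refine ⟨fam.conj_mem h ((fam.blk_mem _ _).2 ⟨x.2.1, y.2.1⟩), ?_⟩
  rw [aeval_algHom_apply, ← map_pow, rank_cj, aeval_blk, ← map_pow, Prod.pow_mk,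
    pow_cast_zero x.2.2 (by omega)]
  exact rank_blk_zero_unit (y.2.2.pow _)

theorem stratum_unique {a b : ℕ} {h h' : Sp[a + b]} {x x' : fam.Nil a} {y y' : fam.Inv b}
    (e : cj h (blk a b (x.1, y.1)) = cj h' (blk a b (x'.1, y'.1))) :
    ∃ (s : Sp[a]) (t : Sp[b]), h' = h * blockSp a b F (s, t) ∧ x'.1 = cj s⁻¹ x.1 ∧
      y'.1 = cj t⁻¹ y.1 := by
  obtain ⟨D, hD⟩ : ∃ D, reindexAlgEquiv F F (blockEquiv a b) D = ((h⁻¹ * h' : Sp[a + b]) : Mn[a + b]) :=
    (reindexAlgEquiv F F (blockEquiv a b)).surjective _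
  have e1 : blk a b (x.1, y.1) = cj (h⁻¹ * h') (blk a b (x'.1, y'.1)) := by
    rw [← cj_cj, ← e, cj_inv_cj]
  have e2 : blk a b (aeval x.1 fam.P, aeval y.1 fam.P) =
      cj (h⁻¹ * h') (blk a b (aeval x'.1 fam.P, aeval y'.1 fam.P)) := by
    rw [← aeval_blk, ← aeval_blk, ← aeval_algHom_apply, ← e1]
  have e3 : blk a b (aeval x.1 fam.P, aeval y.1 fam.P) * ((h⁻¹ * h' : Sp[a + b]) : Mn[a + b]) =
      ((h⁻¹ * h' : Sp[a + b]) : Mn[a + b]) * blk a b (aeval x'.1 fam.P, aeval y'.1 fam.P) := by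
    rw [e2, cj_apply, Matrix.mul_assoc, coe_inv_mul', Matrix.mul_one]
  rw [blk_apply, blk_apply, ← hD, ← map_mul, ← map_mul] at e3
  have e4 := (reindexAlgEquiv F F (blockEquiv a b)).injective e3
  rw [← fromBlocks_toBlocks D, fromBlocks_multiply, fromBlocks_multiply, fromBlocks_inj] at e4
  simp only [Matrix.zero_mul, Matrix.mul_zero, add_zero, zero_add] at e4
  obtain ⟨-, e12, e21, -⟩ := e4
  have h12 := eq_zero_of_intertwine x.2.2 y'.2.2 e12
  have h21 := eq_zero_of_intertwine' x'.2.2 y.2.2 e21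
  have hDb : ((h⁻¹ * h' : Sp[a + b]) : Mn[a + b]) = blk a b (D.toBlocks₁₁, D.toBlocks₂₂) := by
    rw [← hD, blk_apply]
    conv_lhs => rw [← fromBlocks_toBlocks D, h12, h21]
  obtain ⟨hs, ht⟩ := (blk_mem_symplectic _ _).1 (hDb ▸ (h⁻¹ * h').2)
  refine ⟨⟨_, hs⟩, ⟨_, ht⟩, ?_, ?_⟩
  · rw [← inv_mul_eq_iff_eq_mul]
    exact Subtype.ext hDb
  have hst : h⁻¹ * h' = blockSp a b F (⟨_, hs⟩, ⟨_, ht⟩) := Subtype.ext hDb
  have e5 : blk a b (x'.1, y'.1) = cj (h⁻¹ * h')⁻¹ (blk a b (x.1, y.1)) := by rw [e1, cj_inv_cj]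
  rw [hst, cj_apply, inv_inv, ← map_inv, Prod.inv_mk, coe_blockSp_eq, coe_blockSp_eq, ← map_mul,
    ← map_mul] at e5
  have e6 := blk_injective a b e5
  constructor
  · rw [cj_apply, inv_inv]; exact congrArg Prod.fst e6
  · rw [cj_apply, inv_inv]; exact congrArg Prod.snd e6

theorem card_mul_of_fibre {α β : Type*} [Finite α] [Finite β] (ψ : α → β) (c : ℕ)
    (hfib : ∀ t, Nat.card {x : α // ψ x = t} = c) : Nat.card β * c = Nat.card α := by
  haveI := Fintype.ofFinite β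
  have h := Nat.card_congr (Equiv.sigmaFiberEquiv ψ)
  rw [Nat.card_sigma, Finset.sum_congr rfl fun t _ => hfib t, Finset.sum_const, Finset.card_univ,
    ← Nat.card_eq_fintype_card, smul_eq_mul] at h
  exact h

variable [Fintype F]

instance instFiniteNil (n : ℕ) : Finite (fam.Nil n) := Subtype.finite

instance instFiniteInv (n : ℕ) : Finite (fam.Inv n) := Subtype.finite

theorem card_stratum (a b : ℕ) :
    Nat.card {X : Mn[a + b] // X ∈ fam.S (a + b) ∧
      ((aeval X fam.P) ^ (2 * (a + b))).rank = 2 * b} * (Nat.card Sp[a] * Nat.card Sp[b]) =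
      Nat.card Sp[a + b] * (Nat.card (fam.Nil a) * Nat.card (fam.Inv b)) := by
  classical
  let ψ : Sp[a + b] × fam.Nil a × fam.Inv b → {X : Mn[a + b] // X ∈ fam.S (a + b) ∧
      ((aeval X fam.P) ^ (2 * (a + b))).rank = 2 * b} :=
    fun d => ⟨cj d.1 (blk a b (d.2.1.1, d.2.2.1)), stratum_mem fam d.1 d.2.1 d.2.2⟩
  rw [← Nat.card_prod Sp[a] Sp[b], ← Nat.card_prod (fam.Nil a), ← Nat.card_prod Sp[a + b]]
  refine card_mul_of_fibre ψ _ fun Z => ?_
  obtain ⟨h, x, y, hZ⟩ := exists_stratum_repr fam Z.2.1 Z.2.2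
  have hm : ∀ (s : Sp[a]) (t : Sp[b]),
      cj (h * blockSp a b F (s, t)) (blk a b (cj s⁻¹ x.1, cj t⁻¹ y.1)) = Z.1 := by
    intro s t
    rw [hZ, ← cj_cj]
    congr 1
    rw [cj_apply, ← map_inv, Prod.inv_mk, coe_blockSp_eq, coe_blockSp_eq, ← map_mul, ← map_mul,
      Prod.mk_mul_mk, Prod.mk_mul_mk, ← cj_apply, ← cj_apply, cj_cj_inv, cj_cj_inv]
  let η : Sp[a] × Sp[b] → {d : Sp[a + b] × fam.Nil a × fam.Inv b // ψ d = Z} := fun st =>
    ⟨(h * blockSp a b F st,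
      ⟨cj st.1⁻¹ x.1, fam.conj_mem _ x.2.1, by rw [aeval_algHom_apply]; exact x.2.2.map _⟩,
      ⟨cj st.2⁻¹ y.1, fam.conj_mem _ y.2.1, by rw [aeval_algHom_apply]; exact y.2.2.map _⟩),
      Subtype.ext (hm st.1 st.2)⟩
  refine (Nat.card_congr (Equiv.ofBijective η ⟨?_, ?_⟩)).symm
  · intro st st' hst
    exact blockSp_injective (mul_left_cancel (congrArg (fun d => d.1.1) hst))
  · rintro ⟨⟨h', x', y'⟩, hd⟩
    have e : cj h (blk a b (x.1, y.1)) = cj h' (blk a b (x'.1, y'.1)) := by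
      rw [← hZ]; exact (congrArg Subtype.val hd).symm
    obtain ⟨s, t, e1, e2, e3⟩ := stratum_unique fam e
    exact ⟨(s, t), Subtype.ext (Prod.ext e1.symm (Prod.ext (Subtype.ext e2.symm) (Subtype.ext e3.symm)))⟩

theorem even_rank {m : ℕ} {X : Mn[m]} (hX : X ∈ fam.S m) :
    Even ((aeval X fam.P) ^ (2 * m)).rank := by
  classical
  set T := aeval X fam.P with hT
  obtain ⟨U, hUu, hcomm, hadj⟩ := fam.adj hX
  set f : Module.End F (Fin m ⊕ Fin m → F) := Matrix.toLinAlgEquiv' T with hf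
  have hfN : ∀ k v, (f ^ k) v = T ^ k *ᵥ v := fun k v => by rw [hf, ← map_pow]; rfl
  have hV : finrank F (Fin m ⊕ Fin m → F) = 2 * m := by
    rw [Module.finrank_fintype_fun_eq_card]; simp [two_mul]
  have h1 : (T ^ (2 * m)).mulVecLin = f ^ (2 * m) := LinearMap.ext fun v => by rw [hfN]; rfl
  obtain ⟨c, hc, -⟩ := exists_gram_family (U := LinearMap.range (f ^ (2 * m))) (by
    rintro x ⟨z, rfl⟩ hx
    have hsc : SemiconjBy Jn[m] (U * T) Tᵀ := hadj
    have h2 : (T ^ (2 * m))ᵀ * Jn[m] = Jn[m] * (U ^ (2 * m) * T ^ (2 * m)) := by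
      rw [transpose_pow, ← hcomm.mul_pow, (hsc.pow_right (2 * m)).eq]
    have h3 : U ^ (2 * m) *ᵥ (T ^ (2 * m) *ᵥ (T ^ (2 * m) *ᵥ z)) = 0 := by
      refine eq_zero_of_form_eq_zero fun w => form_eq_zero_comm.1 ?_
      have h4 := hx _ ⟨w, rfl⟩
      rw [form_eq_zero_comm, hfN, hfN] at h4
      rw [← h4]
      show w ⬝ᵥ (Jn[m] *ᵥ (U ^ (2 * m) *ᵥ (T ^ (2 * m) *ᵥ (T ^ (2 * m) *ᵥ z)))) =
        (T ^ (2 * m) *ᵥ w) ⬝ᵥ (Jn[m] *ᵥ (T ^ (2 * m) *ᵥ z))
      rw [← vecMul_transpose (T ^ (2 * m)) w, ← Matrix.dotProduct_mulVec,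
        Matrix.mulVec_mulVec _ ((T ^ (2 * m))ᵀ) Jn[m], h2]
      simp only [Matrix.mulVec_mulVec, Matrix.mul_assoc]
    have h6 : z ∈ LinearMap.ker (f ^ (2 * m + 2 * m)) := by
      rw [LinearMap.mem_ker, hfN, pow_add, ← Matrix.mulVec_mulVec]
      obtain ⟨u, hu⟩ := hUu.pow (2 * m)
      rw [← hu] at h3
      have h7 := congrArg (fun v => ((u⁻¹ : (Mn[m])ˣ) : Mn[m]) *ᵥ v) h3
      simpa [Matrix.mulVec_mulVec, Matrix.mul_assoc] using h7
    rw [Module.End.ker_pow_eq_ker_pow_finrank_of_le (by rw [hV]; omega), hV] at h6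
    exact h6)
  exact ⟨c, by rw [Matrix.rank, h1, hc, two_mul]⟩

theorem card_eq_sum (m : ℕ) :
    (Nat.card (fam.S m) : ℚ) / Nat.card Sp[m] =
      ∑ p ∈ Finset.HasAntidiagonal.antidiagonal m, (Nat.card (fam.Nil p.1) : ℚ) / Nat.card Sp[p.1] *
        ((Nat.card (fam.Inv p.2) : ℚ) / Nat.card Sp[p.2]) := by
  classical
  have hrk : ∀ X ∈ (Finset.univ : Finset Mn[m]).filter (· ∈ fam.S m),
      ((aeval X fam.P) ^ (2 * m)).rank / 2 ∈ Finset.range (m + 1) := fun X _ => by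
    have := Matrix.rank_le_card_width ((aeval X fam.P) ^ (2 * m))
    simp only [Fintype.card_sum, Fintype.card_fin] at this
    rw [Finset.mem_range]; omega
  have hS : Nat.card (fam.S m) = ((Finset.univ : Finset Mn[m]).filter (· ∈ fam.S m)).card := by
    rw [Nat.card_eq_fintype_card]
    exact Fintype.card_subtype _
  rw [hS, Finset.card_eq_sum_card_fiberwise hrk, Nat.cast_sum, Finset.sum_div,
    ← Finset.Nat.sum_antidiagonal_swap, Finset.Nat.sum_antidiagonal_eq_sum_range_succ_mk]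
  refine Finset.sum_congr rfl fun b hb => ?_
  obtain ⟨a, rfl⟩ : ∃ a, m = a + b := ⟨m - b, by rw [Finset.mem_range] at hb; omega⟩
  simp only [Prod.fst_swap, Prod.snd_swap]
  rw [show a + b - b = a by omega]
  have hcard : Nat.card {X : Mn[a + b] // X ∈ fam.S (a + b) ∧
      ((aeval X fam.P) ^ (2 * (a + b))).rank = 2 * b} =
      ((((Finset.univ : Finset Mn[a + b]).filter (· ∈ fam.S (a + b)))).filter
        fun X => ((aeval X fam.P) ^ (2 * (a + b))).rank / 2 = b).card := by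
    rw [Nat.card_eq_fintype_card, Fintype.card_subtype, Finset.filter_filter]
    refine congrArg Finset.card (Finset.filter_congr fun X _ => ?_)
    refine and_congr_right fun hX => ?_
    have := Nat.two_mul_div_two_of_even (even_rank fam hX)
    omega
  have hp : ∀ n, (Nat.card Sp[n] : ℚ) ≠ 0 := fun n => Nat.cast_ne_zero.2 Nat.card_pos.ne'
  have h := congrArg (fun k : ℕ => (k : ℚ)) (card_stratum fam a b)
  rw [hcard] at h
  push_cast at h
  field_simp [hp a, hp b, hp (a + b)]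
  linear_combination h

end CfsgLib.SympUnipCount
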